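import Cfsg.Agent.J4.Dat
import Cfsg.Agent.FT.Basic
import Cfsg.Prelude.Def_Spor_Mathieu

/-! Facts about `M₂₂`. -/

set_option autoImplicit false

namespace J4
open Cfsg H2 Subgroup FT

/-- the properties of `M₂₂` that are used -/
structure MF (M : Type*) [Group M] : Prop where
  card : Nat.card M = 443520
  simp : IsSimpleGroup M
  c3 : ∀ a b : M, a ^ 3 = 1 → a ≠ 1 → b ^ 3 = 1 → b ≠ 1 → ∃ g, g * a * g⁻¹ = b
  c2 : ∀ a b : M, a * a = 1 → a ≠ 1 → b * b = 1 → b ≠ 1 → ∃ g, g * a * g⁻¹ = b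
  cen : ∀ a : M, a * a = 1 → a ≠ 1 → Nat.card (Cen1 a) = 384
  e32 : ∀ X : Subgroup M, (∀ a ∈ X, a * a = 1) → Nat.card X ≠ 32
  nc : ∃ a b : M, a * a = 1 ∧ b * b = 1 ∧ a * b * (a * b) ≠ 1
  aut : Nat.card (MulAut M) ≤ 887040

abbrev K2 : Subgroup P24 := fixL M24 ([0, 23].map pt)

theorem K2_eq : K2 = M24 ⊓ stP (pt 23) ⊓ stP (pt 0) := by
  ext g; simp [mem_fixL, and_assoc, and_comm]

theorem rep22 {c : ℕ} (h : in22 c = true) : RepIn K2 c := by
  rw [in22, Bool.and_eq_true] at h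
  exact (repIn_M24 h.1).fixL h.2

theorem gens22 : AllIn K2 [uC, vC, sP, sM, t0, t1, t2, a3, b3, rC] := fun c hc =>
  rep22 (List.all_eq_true.1 k_gens c hc)

theorem sub22 {l : List ℕ} (h : l ⊆ [uC, vC, sP, sM, t0, t1, t2, a3, b3, rC]) : AllIn K2 l :=
  fun c hc => gens22 c (h hc)

theorem gp_eq : gp [uC, sP] = K2 := by
  have h := (allIn_gp (sub22 (l := [uC, sP]) (by simp))).words _ |> (k_words ▸ ·)
  exact le_antisymm (gp_le (sub22 (by simp))) (fix2_le (fun c hc => h c (by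
    simp at hc ⊢; tauto)) (h _ (by simp)))

theorem ne_of_ap {g : P24} {c : ℕ} (h : Rep g c) (e : ap c 1 ≠ 1) : g ≠ 1 := by
  rintro rfl
  exact e ((h 1 (by norm_num)).symm.trans (by decide))

theorem mul_one_code {c d : ℕ} (h' : Rep 1 (mulC c d)) : mulC c d = oneC := by
  have : ∀ a b, mulC a b < 32 ^ 24 := fun a b => bld_lt fun _ _ => ap_lt32 _ _
  exact eq_of_ap (k := 24) (this _ _) (by decide +kernel) fun i hi =>
    (h' i hi).symm.trans (rep_one i hi)

theorem pow4_code {g : P24} {c : ℕ} (h : Rep g c) (e : g ^ 4 = 1) : powC c 4 = oneC := by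
  have : powC c 4 = mulC (powC c 3) c := force_eq (powC c 3) fun a => mulC a c
  rw [this]
  exact mul_one_code (this ▸ e ▸ h.pow 4)

section
variable {s : P24} (hs : Rep s sP)
include hs

theorem cls : (∀ g ∈ K2, ∃ i < 1155, Rep (g * s * g⁻¹) (lk cT 120 i)) ∧
    (∀ i < 1155, ∃ g ∈ K2, Rep (g * s * g⁻¹) (lk cT 120 i)) ∧
      {a | ∃ g ∈ K2, g * s * g⁻¹ = a}.ncard = 1155 :=
  gp_eq ▸ orbit_tab (f := fun g a => g * a * g⁻¹) (by simp) (by simp [mul_assoc]) rep_cj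
    (sub22 (l := [uC, sP]) (by simp)) (by norm_num) k_c (k_0.1 ▸ hs)

theorem inv_cj {a : P24} (ha : a ∈ K2) (h2 : a * a = 1) (h1 : a ≠ 1) :
    ∃ g ∈ K2, g * s * g⁻¹ = a := by
  obtain ⟨w, hw, i, hi, e⟩ := syl_tab (m := 3465) (sub22 (l := [t0, t1, t2]) (by simp))
    Nat.prime_two (by rw [card_fix2]; norm_num) (by norm_num) k_t k_0.2.1 ha (by rwa [pow_two])
  have := allLt_spec k_ti i hi
  simp only [force_eq, Bool.or_eq_true, Bool.and_eq_true, Nat.beq_eq, Nat.blt_eq,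
    Bool.not_eq_true'] at this
  rcases this with (h | h) | ⟨h, h'⟩
  · exact absurd (conj_eq_one_iff.1 (h ▸ e).eq_one) h1
  · have := mul_one_code (show w * a * w⁻¹ * (w * a * w⁻¹) = 1 by
      simp [mul_assoc, ← mul_assoc a, h2] ▸ e.mul e)
    rw [this] at h; exact absurd h (by decide)
  · obtain ⟨g, hg, e'⟩ := (cls hs).2.1 _ h
    exact ⟨w⁻¹ * g, mul_mem (inv_mem hw) hg, by
      calc w⁻¹ * g * s * (w⁻¹ * g)⁻¹ = w⁻¹ * (g * s * g⁻¹) * w := by group
        _ = a := by rw [e'.unique (h' ▸ e)]; group⟩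

end

theorem three_cj {b : P24} (hb : Rep b a3) {a : P24} (ha : a ∈ K2) (h2 : a ^ 3 = 1) (h1 : a ≠ 1) :
    ∃ g ∈ K2, g * a * g⁻¹ = b := by
  obtain ⟨w, hw, i, hi, e⟩ := syl_tab (m := 49280) (sub22 (l := [a3, b3]) (by simp))
    Nat.prime_three (by rw [card_fix2]; norm_num) (by norm_num) k_q k_0.2.2.1 ha h2
  have := allLt_spec k_qw i hi
  simp only [force_eq, Bool.or_eq_true, Bool.and_eq_true, Nat.beq_eq] at this
  rcases this with h | ⟨h, h'⟩
  · exact absurd (conj_eq_one_iff.1 (h ▸ e).eq_one) h1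
  · obtain ⟨g, hg, e'⟩ := rep22 h
    exact ⟨g * w, mul_mem hg hw, by simpa [mul_assoc] using (rep_cj e' e h').unique hb⟩

theorem eleven_cj {u : P24} (hu : Rep u uC) {a : P24} (ha : a ∈ K2) (h2 : a ^ 11 = 1)
    (h1 : a ≠ 1) : ∃ g ∈ K2, g * a * g⁻¹ = u ∨ g * a * g⁻¹ = u⁻¹ := by
  obtain ⟨w, hw, i, hi, e⟩ := syl_tab (m := 40320) (sub22 (l := [uC]) (by simp))
    (by norm_num : Nat.Prime 11) (by rw [card_fix2]; norm_num) (by norm_num) k_e k_0.2.2.2 ha h2
  have := allLt_spec k_ew i hi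
  simp only [force_eq, Bool.or_eq_true, Bool.and_eq_true, Nat.beq_eq] at this
  obtain ⟨v, -, hv⟩ := gens22 vC (by simp)
  rcases this with h | ⟨h, h'⟩
  · exact absurd (conj_eq_one_iff.1 (h ▸ e).eq_one) h1
  · obtain ⟨g, hg, e'⟩ := rep22 h
    refine ⟨g * w, mul_mem hg hw, h'.imp (fun h' => ?_) fun h' => ?_⟩
    · simpa [mul_assoc] using (rep_cj e' e h').unique hu
    · simpa [mul_assoc] using ((rep_cj e' e h').unique hv).trans (hu.inv hv k_misc.1)

theorem aut_cj {u s u' s' a : P24} {c d : ℕ} (hu : Rep u uC) (hs : Rep s sP) (hu' : Rep u' c)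
    (hs' : Rep s' d) (h : autOK c d = true) (ha : a ∈ K2) (h2 : a * a = 1) (h1 : a ≠ 1)
    (r1 : (u' * a) ^ 4 = 1) (r2 : (u' * (u' * a)) ^ 4 = 1) :
    ∃ k : ℕ, u ^ k * a * (u ^ k)⁻¹ = s' := by
  obtain ⟨g, hg, rfl⟩ := inv_cj hs ha h2 h1
  obtain ⟨i, hi, e⟩ := (cls hs).1 g hg
  have := allLt_spec h i hi
  simp only [force_eq, Bool.or_eq_true, Bool.not_eq_true', List.any_eq_true] at this
  rcases this with (h | h) | ⟨k, -, h⟩
  · rw [pow4_code (hu'.mul e) r1] at h; exact absurd h (by decide)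
  · rw [pow4_code (hu'.mul (hu'.mul e)) r2] at h; exact absurd h (by decide)
  · exact ⟨k, (rep_cj (hu.pow k) e h).unique hs'⟩

theorem aut_le : Nat.card (MulAut K2) ≤ 887040 := by
  obtain ⟨u, hu, eu⟩ := gens22 uC (by simp)
  obtain ⟨v, -, ev⟩ := gens22 vC (by simp)
  obtain ⟨s, hs, es⟩ := gens22 sP (by simp)
  obtain ⟨s', -, es'⟩ := gens22 sM (by simp)
  obtain rfl := eu.inv ev k_misc.1
  obtain ⟨-, m1, m2, m3, m4, -, -, m5, m6, -⟩ := k_misc
  let U : K2 := ⟨u, hu⟩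
  let S : K2 := ⟨s, hs⟩
  have key : ∀ α : MulAut K2, ∃ g : K2, ∃ b : Bool,
      (g : P24) * α U * (g : P24)⁻¹ = (if b then u else u⁻¹) ∧
        (g : P24) * α S * (g : P24)⁻¹ = if b then s else s' := fun α => by
    have tr : ∀ x : K2, (x : P24) = 1 → (α x : P24) = 1 := fun x hx => by
      rw [show x = 1 from Subtype.ext hx, map_one]; rfl
    have tr' : ∀ x : K2, (x : P24) ≠ 1 → (α x : P24) ≠ 1 := fun x hx e =>
      hx (congrArg Subtype.val (α.map_eq_one_iff.1 (Subtype.ext e)))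
    obtain ⟨g, hg, e⟩ := eleven_cj eu (α U).2
      (by rw [← coe_pow, ← map_pow]; exact tr (U ^ 11) (m1 ▸ eu.pow 11).eq_one) (tr' U (ne_of_ap eu m2))
    have a0 : g * α S * g⁻¹ ∈ K2 := mul_mem (mul_mem hg (α S).2) (inv_mem hg)
    have a2 : g * α S * g⁻¹ * (g * α S * g⁻¹) = 1 := by
      have := tr (S * S) (m3 ▸ es.mul es).eq_one
      simp only [map_mul, coe_mul] at this
      simp [mul_assoc, ← mul_assoc (α S : P24), this]
    have a1 : g * α S * g⁻¹ ≠ 1 := fun e => tr' S (ne_of_ap es m4) (conj_eq_one_iff.1 e)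
    have r1 : (g * α U * g⁻¹ * (g * α S * g⁻¹)) ^ 4 = 1 := by
      have := tr ((U * S) ^ 4) (m5 ▸ (eu.mul es).pow 4).eq_one
      simp only [map_mul, map_pow, coe_mul, coe_pow] at this
      rw [show g * α U * g⁻¹ * (g * α S * g⁻¹) = g * (α U * α S) * g⁻¹ by group, conj_pow, this]
      simp
    have r2 : (g * α U * g⁻¹ * (g * α U * g⁻¹ * (g * α S * g⁻¹))) ^ 4 = 1 := by
      have := tr ((U * (U * S)) ^ 4) (m6 ▸ (eu.mul (eu.mul es)).pow 4).eq_one
      simp only [map_mul, map_pow, coe_mul, coe_pow] at this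
      rw [show g * α U * g⁻¹ * (g * α U * g⁻¹ * (g * α S * g⁻¹)) =
        g * (α U * (α U * α S)) * g⁻¹ by group, conj_pow, this]
      simp
    rcases e with e | e <;> rw [e] at r1 r2
    · obtain ⟨k, hk⟩ := aut_cj eu es eu es k_a1 a0 a2 a1 r1 r2
      refine ⟨⟨u ^ k * g, mul_mem (pow_mem hu k) hg⟩, true, ?_, by simpa [mul_assoc] using hk⟩
      calc u ^ k * g * α U * (u ^ k * g)⁻¹ = u ^ k * (g * α U * g⁻¹) * (u ^ k)⁻¹ := by group
        _ = u := by rw [e]; group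
    · obtain ⟨k, hk⟩ := aut_cj eu es ev es' k_a2 a0 a2 a1 r1 r2
      refine ⟨⟨u ^ k * g, mul_mem (pow_mem hu k) hg⟩, false, ?_, by simpa [mul_assoc] using hk⟩
      calc u ^ k * g * α U * (u ^ k * g)⁻¹ = u ^ k * (g * α U * g⁻¹) * (u ^ k)⁻¹ := by group
        _ = u⁻¹ := by rw [e]; group
  choose g b h using key
  have inj : Function.Injective fun α => (g α, b α) := fun α β e => by
    have e1 : g α = g β := congrArg Prod.fst e
    have e2 : b α = b β := congrArg Prod.snd e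
    have hU : α U = β U := Subtype.ext (by
      have := (h α).1.trans (e2 ▸ e1 ▸ (h β).1.symm); simpa using this)
    have hS : α S = β S := Subtype.ext (by
      have := (h α).2.trans (e2 ▸ e1 ▸ (h β).2.symm); simpa using this)
    ext1 x
    have : K2 ≤ (α.toMonoidHom.eqLocus β.toMonoidHom).map K2.subtype := by
      conv_lhs => rw [← gp_eq]
      refine gp_le fun c hc => ?_
      simp only [List.mem_cons, List.not_mem_nil, or_false] at hc
      rcases hc with rfl | rfl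
      · exact ⟨u, ⟨U, hU, rfl⟩, eu⟩
      · exact ⟨s, ⟨S, hS, rfl⟩, es⟩
    obtain ⟨y, hy, e⟩ := this x.2
    obtain rfl : y = x := Subtype.ext e
    exact hy
  have := Nat.card_le_card_of_injective _ inj
  rwa [Nat.card_prod, card_fix2, Nat.card_eq_fintype_card (α := Bool), Fintype.card_bool] at this

theorem index_cen1 {M : Type*} [Group M] (a : M) :
    (Cen1 a).index = {b | ∃ g : M, g * a * g⁻¹ = b}.ncard := by
  have h := MulAction.index_stabilizer (ConjAct M) a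
  rw [ConjAct.stabilizer_eq_centralizer] at h
  exact h

theorem mf_K2 : MF K2 := by
  obtain ⟨s, hs, es⟩ := gens22 sP (by simp)
  obtain ⟨r, hr, er⟩ := gens22 rC (by simp)
  obtain ⟨b, hb, eb⟩ := gens22 a3 (by simp)
  obtain ⟨-, -, -, m3, m4, m5, m6, -, -, m7⟩ := k_misc
  have ne : ∀ {a : K2}, a ≠ 1 → (a : P24) ≠ 1 := fun h e => h (Subtype.ext e)
  have c2 : ∀ a : K2, a * a = 1 → a ≠ 1 → ∃ g : K2, g * ⟨s, hs⟩ * g⁻¹ = a := fun a h2 h1 =>
    let ⟨g, hg, e⟩ := inv_cj es a.2 (congrArg Subtype.val h2) (ne h1)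
    ⟨⟨g, hg⟩, Subtype.ext e⟩
  refine ⟨card_fix2, K2_eq ▸ M22_simple (by decide), fun a a' h1 h2 h3 h4 => ?_,
    fun a a' h1 h2 h3 h4 => ?_, fun a h1 h2 => ?_, fun X hX hc => ?_,
    ⟨⟨r, hr⟩, ⟨s, hs⟩, Subtype.ext (m5 ▸ er.mul er).eq_one, Subtype.ext (m3 ▸ es.mul es).eq_one,
      fun e => ne_of_ap ((er.mul es).pow 2) m6 (by rw [pow_two]; exact congrArg Subtype.val e)⟩,
    aut_le⟩
  · obtain ⟨g, hg, e⟩ := three_cj eb a.2 (congrArg Subtype.val h1) (ne h2)
    obtain ⟨g', hg', e'⟩ := three_cj eb a'.2 (congrArg Subtype.val h3) (ne h4)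
    refine ⟨⟨g'⁻¹ * g, mul_mem (inv_mem hg') hg⟩, Subtype.ext ?_⟩
    calc g'⁻¹ * g * a * (g'⁻¹ * g)⁻¹ = g'⁻¹ * (g * a * g⁻¹) * g' := by group
      _ = a' := by rw [e, ← e']; group
  · obtain ⟨g, rfl⟩ := c2 a h1 h2
    obtain ⟨g', rfl⟩ := c2 a' h3 h4
    exact ⟨g' * g⁻¹, by group⟩
  · have h := (Cen1 a).card_mul_index
    have : (Cen1 a).index = 1155 := by
      obtain ⟨g, rfl⟩ := c2 a h1 h2
      rw [index_cen1, ← (cls es).2.2, ← Set.ncard_image_of_injective _ Subtype.val_injective]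
      congr 1
      ext y
      constructor
      · rintro ⟨_, ⟨k, rfl⟩, rfl⟩
        exact ⟨k * g, (k * g).2, by simp [mul_assoc]⟩
      · rintro ⟨k, hk, rfl⟩
        exact ⟨_, ⟨⟨k, hk⟩ * g⁻¹, rfl⟩, by simp [mul_assoc]⟩
    rw [this, card_fix2] at h
    omega
  · classical
    haveI := Fintype.ofFinite X
    have fx : ∀ a : X, Fintype.card (MulAction.fixedBy GolayPt a) = if a = 1 then 24 else 8 := by
      intro a
      split_ifs with h
      · subst h; simp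
      · obtain ⟨g, e⟩ := c2 a.1 (hX _ a.2) fun e => h (Subtype.ext e)
        rw [← m7, ← Fintype.card_subtype]
        refine Fintype.card_congr ((MulAction.toPerm (g⁻¹ : P24)).subtypeEquiv fun p => ?_)
        rw [← es.idx_apply, idx_injective.eq_iff, MulAction.mem_fixedBy]
        show (a.1.1 : P24) p = p ↔ _
        rw [← e]
        simp [Equiv.eq_symm_apply]
    have := MulAction.sum_card_fixedBy_eq_card_orbits_mul_card_group X GolayPt
    rw [← Nat.card_eq_fintype_card (α := X), hc] at this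
    simp only [fx] at this
    rw [Finset.sum_ite, Finset.sum_const, Finset.sum_const, Finset.filter_eq' , Finset.filter_ne',
      Finset.card_erase_of_mem (Finset.mem_univ _), Finset.card_univ, ← Nat.card_eq_fintype_card,
      hc] at this
    simp at this
    omega

theorem mf_M22 : MF Spor.M22 := by
  have : Spor.M22 = K2 := K2_eq ▸ rfl
  rw [this]; exact mf_K2

end J4
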