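import Cfsg.Agent.H2.Simple

/-! Orbit tables for coded permutations of the 24 points. -/

set_option autoImplicit false

namespace J4
open Cfsg H2

/-- entry `i` of width `w` -/
def lk (T w i : ℕ) : ℕ := (T >>> (w * i)) % 2 ^ w

def allLt (n : ℕ) (p : ℕ → Bool) : Bool := Nat.rec true (fun i acc => p i && acc) n

theorem allLt_spec {n : ℕ} {p : ℕ → Bool} (h : allLt n p = true) : ∀ i < n, p i = true := by
  induction n with
  | zero => intro i hi; omega
  | succ n ih =>
    have : allLt (n + 1) p = (p n && allLt n p) := rfl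
    rw [this, Bool.and_eq_true] at h
    intro i hi
    rcases Nat.lt_succ_iff_lt_or_eq.1 hi with e | rfl
    · exact ih h.2 i e
    · exact h.1

theorem eq_of_ap {k : ℕ} : ∀ {c d : ℕ}, c < 32 ^ k → d < 32 ^ k → (∀ i < k, ap c i = ap d i) →
    c = d := by
  induction k with
  | zero => intro c d hc hd _; omega
  | succ k ih =>
    intro c d hc hd h
    have h0 := h 0 (by omega)
    simp only [ap_eq, pow_zero, Nat.div_one] at h0
    have := @ih (c / 32) (d / 32) (by rw [pow_succ] at hc; omega) (by rw [pow_succ] at hd; omega)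
      fun i hi => by
        have := h (i + 1) (by omega)
        simp only [ap_eq] at this ⊢
        rwa [Nat.div_div_eq_div_mul, Nat.div_div_eq_div_mul, mul_comm 32, ← pow_succ]
    omega

theorem lk_uniq {g : P24} {T i j : ℕ} (h1 : Rep g (lk T 120 i)) (h2 : Rep g (lk T 120 j)) :
    lk T 120 i = lk T 120 j := by
  have e : (2 : ℕ) ^ 120 = 32 ^ 24 := by norm_num
  exact eq_of_ap (k := 24) (e ▸ Nat.mod_lt _ (by positivity)) (e ▸ Nat.mod_lt _ (by positivity))
    fun i hi => (h1 i hi).symm.trans (h2 i hi)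

/-- `g a g⁻¹ = e` -/
def cj (c d e : ℕ) : Bool := Nat.beq (mulC c d) (mulC e c)

theorem rep_cj {g a : P24} {c d e : ℕ} (hg : Rep g c) (ha : Rep a d) (h : cj c d e = true) :
    Rep (g * a * g⁻¹) e := by
  have h1 : Rep (g * a) (mulC e c) := Nat.eq_of_beq_eq_true h ▸ hg.mul ha
  intro i hi
  have h2 := h1.idx_apply (g⁻¹ (pt i))
  rw [mulC, ap_bld (fun _ _ => ap_lt32 _ _) (idx_lt _), ← hg.idx_apply] at h2
  simpa [idx_pt hi] using h2

def ml (c d e : ℕ) : Bool := Nat.beq (mulC c d) e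

theorem rep_ml {g a : P24} {c d e : ℕ} (hg : Rep g c) (ha : Rep a d) (h : ml c d e = true) :
    Rep (g * a) e := Nat.eq_of_beq_eq_true h ▸ hg.mul ha

/-- the group generated by the coded elements -/
def gp (cs : List ℕ) : Subgroup P24 := Subgroup.closure {g | ∃ c ∈ cs, Rep g c}

theorem gp_le {K : Subgroup P24} {cs : List ℕ} (h : AllIn K cs) : gp cs ≤ K :=
  (Subgroup.closure_le _).2 fun _ ⟨c, hc, hg⟩ => (h c hc).mem hg

theorem allIn_gp {K : Subgroup P24} {cs : List ℕ} (h : AllIn K cs) : AllIn (gp cs) cs :=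
  fun c hc => let ⟨g, _, hg⟩ := h c hc; ⟨g, Subgroup.subset_closure ⟨c, hc, hg⟩, hg⟩

def chk (R : ℕ → ℕ → ℕ → Bool) (cs : List ℕ) (n T P A S : ℕ) : Bool :=
  (allLt cs.length fun j => force (cs.getD j 0) fun c => allLt n fun i =>
    force (lk P 12 (j * n + i)) fun k => Nat.blt k n &&
      force (lk T 120 i) fun a => force (lk T 120 k) fun b => R c a b) &&
  (allLt n fun i => Nat.beq i 0 || force (lk A 14 i) fun a => Nat.blt (a / 4) i &&
    Nat.blt (a % 4) cs.length && Nat.beq (lk P 12 (a % 4 * n + a / 4)) i) &&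
  (allLt n fun i => Nat.blt (lk S 12 i) n) &&
  allLt (n - 1) fun i => Nat.blt (lk T 120 (lk S 12 i)) (lk T 120 (lk S 12 (i + 1)))

theorem orbit_tab {f : P24 → P24 → P24} {R : ℕ → ℕ → ℕ → Bool} (f1 : ∀ a, f 1 a = a)
    (fm : ∀ g h a, f (g * h) a = f g (f h a))
    (hR : ∀ {g a : P24} {c d e : ℕ}, Rep g c → Rep a d → R c d e = true → Rep (f g a) e)
    {K : Subgroup P24} {cs : List ℕ} (hK : AllIn K cs) {n T P A S : ℕ} (hn : 0 < n)
    (h : chk R cs n T P A S = true) {a0 : P24} (h0 : Rep a0 (lk T 120 0)) :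
    (∀ g ∈ gp cs, ∃ i < n, Rep (f g a0) (lk T 120 i)) ∧
      (∀ i < n, ∃ g ∈ gp cs, Rep (f g a0) (lk T 120 i)) ∧
        {a | ∃ g ∈ gp cs, f g a0 = a}.ncard = n := by
  simp only [chk, Bool.and_eq_true] at h
  obtain ⟨⟨⟨h1, h2⟩, h3⟩, h4⟩ := h
  have st : ∀ j < cs.length, ∀ i < n, lk P 12 (j * n + i) < n ∧ ∀ g a, Rep g (cs.getD j 0) →
      Rep a (lk T 120 i) → Rep (f g a) (lk T 120 (lk P 12 (j * n + i))) := fun j hj i hi => by
    have := allLt_spec (force_eq _ _ ▸ allLt_spec h1 j hj) i hi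
    simp only [force_eq, Bool.and_eq_true, Nat.blt_eq] at this
    exact ⟨this.1, fun g a hg ha => hR hg ha this.2⟩
  have up : ∀ g ∈ gp cs, ∃ i < n, Rep (f g a0) (lk T 120 i) := fun g hg => by
    have hg' : g ∈ Submonoid.closure {g | ∃ c ∈ cs, Rep g c} := by
      rw [← Subgroup.closure_toSubmonoid_of_finite]; exact hg
    clear hg
    induction hg' using Submonoid.closure_induction_left with
    | one => exact ⟨0, hn, by rwa [f1]⟩
    | mul_left x hx y _ ih =>
      obtain ⟨c, hc, hx⟩ := hx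
      obtain ⟨j, hj, rfl⟩ := List.mem_iff_getElem.1 hc
      obtain ⟨i, hi, e⟩ := ih
      exact ⟨_, (st j hj i hi).1, fm _ _ _ ▸ (st j hj i hi).2 _ _
        (by rwa [List.getD_eq_getElem _ _ hj]) e⟩
  have lo : ∀ i < n, ∃ g ∈ gp cs, Rep (f g a0) (lk T 120 i) := fun i => by
    induction i using Nat.strong_induction_on with
    | _ i ih =>
      intro hi
      have := allLt_spec h2 i hi
      simp only [force_eq, Bool.and_eq_true, Bool.or_eq_true, Nat.blt_eq, Nat.beq_eq] at this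
      rcases this with rfl | ⟨⟨e1, e2⟩, e3⟩
      · exact ⟨1, one_mem _, by rwa [f1]⟩
      · obtain ⟨g, hg, e⟩ := ih _ e1 (by omega)
        obtain ⟨x, hx, ex⟩ := allIn_gp hK (cs.getD (lk A 14 i % 4) 0) (by
          rw [List.getD_eq_getElem _ _ e2]; exact List.getElem_mem _)
        exact ⟨x * g, mul_mem hx hg, fm _ _ _ ▸ e3 ▸ (st _ e2 _ (by omega)).2 _ _ ex e⟩
  refine ⟨up, lo, ?_⟩
  choose! F hF using lo
  have hS : ∀ i < n, lk S 12 i < n := fun i hi => Nat.blt_eq.mp (allLt_spec h3 i hi)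
  have mono : StrictMonoOn (fun i => lk T 120 (lk S 12 i)) (Set.Iio n) := by
    intro i _ j hj hij
    induction j with
    | zero => omega
    | succ j ih =>
      have e := Nat.blt_eq.mp (allLt_spec h4 j (by have : j + 1 < n := hj; omega))
      rcases Nat.lt_succ_iff_lt_or_eq.1 hij with e' | rfl
      · exact (ih (Nat.lt_of_succ_lt hj) e').trans e
      · exact e
  apply le_antisymm
  · have : {a | ∃ g ∈ gp cs, f g a0 = a} ⊆ (fun i => f (F i) a0) '' Set.Iio n := by
      rintro _ ⟨g, hg, rfl⟩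
      obtain ⟨i, hi, e⟩ := up g hg
      exact ⟨i, hi, (hF i hi).2.unique e⟩
    refine (Set.ncard_le_ncard this (Set.toFinite _)).trans
      ((Set.ncard_image_le (Set.finite_Iio n)).trans (by simp))
  · have := Set.ncard_le_ncard_of_injOn (s := Set.Iio n) (t := {a | ∃ g ∈ gp cs, f g a0 = a})
      (fun i => f (F (lk S 12 i)) a0) (fun i hi => ⟨_, (hF _ (hS i hi)).1, rfl⟩)
      (fun i hi j hj e => mono.injOn hi hj (lk_uniq (hF _ (hS i hi)).2
        (by have e' : f (F (lk S 12 i)) a0 = f (F (lk S 12 j)) a0 := e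
            rw [e']; exact (hF _ (hS j hj)).2))) (Set.toFinite _)
    simpa using this

/-- a Sylow subgroup given by a table -/
theorem syl_tab {K : Subgroup P24} {cs : List ℕ} (hK : AllIn K cs) {p k m T P A S : ℕ}
    (hp : p.Prime) (hc : Nat.card K = p ^ k * m) (hm : ¬ p ∣ m)
    (h : chk ml cs (p ^ k) T P A S = true) (h0 : lk T 120 0 = oneC) {g : P24} (hg : g ∈ K)
    (hgp : g ^ p = 1) : ∃ w ∈ K, ∃ i < p ^ k, Rep (w * g * w⁻¹) (lk T 120 i) := by
  haveI := Fact.mk hp
  obtain ⟨up, -, cd⟩ := orbit_tab (f := fun g a => g * a) one_mul mul_assoc rep_ml hK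
    (pow_pos hp.pos k) h (a0 := 1) (h0 ▸ rep_one)
  simp only [mul_one] at up cd
  have cd' : Nat.card ((gp cs).subgroupOf K) = p ^ k := by
    rw [Nat.card_congr (Subgroup.subgroupOfEquivOfLe (gp_le hK)).toEquiv, ← cd]
    simp only [exists_eq_right]
    rfl
  have hf : (Nat.card K).factorization p = k := by
    rw [hc, Nat.factorization_mul (pow_pos hp.pos k).ne' (by rintro rfl; simp at hm),
      Finsupp.add_apply, hp.factorization_pow, Nat.factorization_eq_zero_of_not_dvd hm]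
    simp
  let Q : Sylow p K := Sylow.ofCard _ (by rw [cd', hf])
  have hz : IsPGroup p (Subgroup.zpowers (⟨g, hg⟩ : K)) := by
    rintro ⟨_, j, rfl⟩
    refine ⟨1, Subtype.ext (Subtype.ext ?_)⟩
    show (g ^ j) ^ p ^ 1 = 1
    rw [pow_one, ← zpow_natCast, ← zpow_mul, mul_comm, zpow_mul, zpow_natCast, hgp, one_zpow]
  obtain ⟨Q', hQ⟩ := hz.exists_le_sylow
  obtain ⟨w, hw⟩ := MulAction.exists_smul_eq K Q' Q
  have : w * ⟨g, hg⟩ * w⁻¹ ∈ (Q : Subgroup K) := by
    rw [← hw]
    exact Subgroup.smul_mem_pointwise_smul _ (MulAut.conj w) _ (hQ (Subgroup.mem_zpowers _))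
  exact ⟨w, w.2, up _ this⟩

end J4
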